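import Mathlib
import Cfsg.Agent.Lib.Classical.Dick.Max3
import Cfsg.Agent.Lib.Classical.Dick.NV2
import Cfsg.Agent.Lib.Classical.Dick.Cent
import Cfsg.Agent.Lib.Classical.Dick.Coat2

/-!
The subgroups isomorphic to `A₅` of `PSL₂(11)`.
-/

set_option autoImplicit false
set_option linter.unusedSimpArgs false
set_option linter.unusedVariables false

namespace Cfsg.Agent.Lib.Classical.Dick

open Matrix
open scoped MatrixGroups
open Cfsg.Agent.Lib.KS2.SL2

section abstract

variable {G : Type*} [Group G] [Finite G]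

/-- Subgroups whose order is the full power of `p` are conjugate. -/
lemma exists_conj_of_card (p : ℕ) [Fact p.Prime] (V W : Subgroup G)
    (hV : Nat.card V = p ^ (Nat.card G).factorization p) (hW : Nat.card W = Nat.card V) :
    ∃ g : G, V.map (MulAut.conj g).toMonoidHom = W := by
  let S : Sylow p G := Sylow.ofCard V hV
  let T : Sylow p G := Sylow.ofCard W (hW.trans hV)
  obtain ⟨g, hg⟩ := MulAction.exists_smul_eq G S T
  exact ⟨g, congrArg (fun X : Sylow p G => (X : Subgroup G)) hg⟩

lemma card_conj_eq (V : Subgroup G) (g : G) :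
    Nat.card (V.map (MulAut.conj g).toMonoidHom) = Nat.card V :=
  Nat.card_congr (V.equivMapOfInjective _ (MulAut.conj g).injective).toEquiv.symm

lemma card_normalizer_conj (V : Subgroup G) (g : G) :
    Nat.card (Subgroup.normalizer ((V.map (MulAut.conj g).toMonoidHom : Subgroup G) : Set G)) =
      Nat.card (Subgroup.normalizer (V : Set G)) := by
  have h := Subgroup.map_equiv_normalizer_eq V (MulAut.conj g)
  rw [← h]
  exact card_conj_eq _ g

/-- An element carrying a suitable subgroup of `H` into `H` lies in `H`. -/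
lemma mem_of_conj_card (H V : Subgroup G) (p : ℕ) [Fact p.Prime] (hVH : V ≤ H)
    (hV : Nat.card V = p ^ (Nat.card H).factorization p)
    (hN : Subgroup.normalizer (V : Set G) ≤ H) (g : G)
    (hg : V.map (MulAut.conj g).toMonoidHom ≤ H) : g ∈ H := by
  classical
  let V1 : Subgroup H := V.subgroupOf H
  let V2 : Subgroup H := (V.map (MulAut.conj g).toMonoidHom).subgroupOf H
  have c1 : Nat.card V1 = Nat.card V := Nat.card_congr (Subgroup.subgroupOfEquivOfLe hVH).toEquiv
  have c2 : Nat.card V2 = Nat.card V :=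
    (Nat.card_congr (Subgroup.subgroupOfEquivOfLe hg).toEquiv).trans (card_conj_eq V g)
  obtain ⟨h, hh⟩ := exists_conj_of_card p V2 V1 (c2.trans hV) (c1.trans c2.symm)
  have hle : V.map (MulAut.conj ((h : G) * g)).toMonoidHom ≤ V := by
    rintro _ ⟨v, hv, rfl⟩
    have h1 : g * v * g⁻¹ ∈ H := hg ⟨v, hv, rfl⟩
    have h2 : (⟨g * v * g⁻¹, h1⟩ : H) ∈ V2 := by
      rw [Subgroup.mem_subgroupOf]
      exact ⟨v, hv, rfl⟩
    have h3 : (MulAut.conj h).toMonoidHom (⟨g * v * g⁻¹, h1⟩ : H) ∈ V1 := by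
      rw [← hh]
      exact ⟨_, h2, rfl⟩
    rw [Subgroup.mem_subgroupOf] at h3
    have e : ((MulAut.conj h).toMonoidHom (⟨g * v * g⁻¹, h1⟩ : H) : H) = (h : G) * (g * v * g⁻¹) * (h : G)⁻¹ := rfl
    rw [e] at h3
    have e2 : (MulAut.conj ((h : G) * g)).toMonoidHom v = (h : G) * (g * v * g⁻¹) * (h : G)⁻¹ := by
      show ((h : G) * g) * v * ((h : G) * g)⁻¹ = _
      group
    rw [e2]
    exact h3
  have heq : V.map (MulAut.conj ((h : G) * g)).toMonoidHom = V :=
    Subgroup.eq_of_le_of_card_ge hle (by rw [card_conj_eq])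
  have hmem : (h : G) * g ∈ Subgroup.normalizer (V : Set G) := by
    rw [Subgroup.mem_normalizer_iff]
    intro x
    constructor
    · intro hx
      have : (MulAut.conj ((h : G) * g)).toMonoidHom x ∈ V := hle ⟨x, hx, rfl⟩
      exact this
    · intro hx
      have h1 : (h : G) * g * x * ((h : G) * g)⁻¹ ∈ V.map (MulAut.conj ((h : G) * g)).toMonoidHom := by
        rw [heq]; exact hx
      obtain ⟨y, hy, hy2⟩ := h1
      have h3 : (MulAut.conj ((h : G) * g)).toMonoidHom y = (h : G) * g * y * ((h : G) * g)⁻¹ := rfl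
      rw [h3] at hy2
      have h4 : y = x := by
        have := mul_right_cancel (mul_left_cancel (a := (h : G) * g) (by
          rw [← mul_assoc, ← mul_assoc]
          exact hy2 : (h : G) * g * (y * ((h : G) * g)⁻¹) = (h : G) * g * (x * ((h : G) * g)⁻¹)))
        exact this
      rw [← h4]
      exact hy
  have h2 := hN hmem
  have h3 : g = (h : G)⁻¹ * ((h : G) * g) := by group
  rw [h3]
  exact H.mul_mem (H.inv_mem h.2) h2

/-- Conjugacy inside a subgroup. -/
lemma exists_conj_in (H V W : Subgroup G) (p : ℕ) [Fact p.Prime] (hVH : V ≤ H) (hWH : W ≤ H)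
    (hW : Nat.card W = p ^ (Nat.card H).factorization p) (hc : Nat.card V = Nat.card W) :
    ∃ h ∈ H, W.map (MulAut.conj h).toMonoidHom = V := by
  classical
  let V1 : Subgroup H := V.subgroupOf H
  let W1 : Subgroup H := W.subgroupOf H
  have c1 : Nat.card V1 = Nat.card V := Nat.card_congr (Subgroup.subgroupOfEquivOfLe hVH).toEquiv
  have c2 : Nat.card W1 = Nat.card W := Nat.card_congr (Subgroup.subgroupOfEquivOfLe hWH).toEquiv
  obtain ⟨h, hh⟩ := exists_conj_of_card p W1 V1 (c2.trans hW) (by rw [c1, c2, hc])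
  refine ⟨h, h.2, ?_⟩
  apply Subgroup.eq_of_le_of_card_ge
  · rintro _ ⟨v, hv, rfl⟩
    have h2 : (⟨v, hWH hv⟩ : H) ∈ W1 := by
      rw [Subgroup.mem_subgroupOf]
      exact hv
    have h3 : (MulAut.conj h).toMonoidHom (⟨v, hWH hv⟩ : H) ∈ V1 := by
      rw [← hh]
      exact ⟨_, h2, rfl⟩
    rw [Subgroup.mem_subgroupOf] at h3
    exact h3
  · rw [card_conj_eq, hc]

lemma mem_normalizer_of_conj_le (V : Subgroup G) (w : G) (h : ∀ x ∈ V, w * x * w⁻¹ ∈ V) :
    w ∈ Subgroup.normalizer (V : Set G) := by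
  have hle : V.map (MulAut.conj w).toMonoidHom ≤ V := by
    rintro _ ⟨v, hv, rfl⟩
    exact h v hv
  have heq : V.map (MulAut.conj w).toMonoidHom = V :=
    Subgroup.eq_of_le_of_card_ge hle (by rw [card_conj_eq])
  rw [Subgroup.mem_normalizer_iff]
  intro x
  refine ⟨h x, fun hx => ?_⟩
  have h1 : w * x * w⁻¹ ∈ V.map (MulAut.conj w).toMonoidHom := by
    rw [heq]; exact hx
  obtain ⟨y, hy, hy2⟩ := h1
  have h3 : (MulAut.conj w).toMonoidHom y = w * y * w⁻¹ := rfl
  rw [h3] at hy2
  have h4 : y = x := by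
    have e : w * (y * w⁻¹) = w * (x * w⁻¹) := by
      rw [← mul_assoc, ← mul_assoc]
      exact hy2
    exact mul_right_cancel (mul_left_cancel e)
  rw [← h4]
  exact hy

lemma normalizer_map_conj (V : Subgroup G) (g : G) :
    Subgroup.normalizer ((V.map (MulAut.conj g).toMonoidHom : Subgroup G) : Set G) =
      (Subgroup.normalizer (V : Set G)).map (MulAut.conj g).toMonoidHom :=
  (Subgroup.map_equiv_normalizer_eq V (MulAut.conj g)).symm

/-- A subgroup of a given prime power order. -/
lemma exists_le_card (K : Subgroup G) (p n : ℕ) [Fact p.Prime] (h : p ^ n ∣ Nat.card K) :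
    ∃ V : Subgroup G, V ≤ K ∧ Nat.card V = p ^ n := by
  obtain ⟨V, hV⟩ := Sylow.exists_subgroup_card_pow_prime (G := K) p h
  refine ⟨V.map K.subtype, ?_, ?_⟩
  · rintro _ ⟨v, -, rfl⟩
    exact v.2
  · rw [← hV]
    exact Nat.card_congr (V.equivMapOfInjective _ K.subtype_injective).toEquiv.symm

lemma factorization_pow_mul (p k m : ℕ) (hp : p.Prime) (hm : ¬ p ∣ m) : (p ^ k * m).factorization p = k := by
  have hm0 : m ≠ 0 := by
    rintro rfl
    exact hm (dvd_zero _)
  rw [Nat.factorization_mul (pow_ne_zero _ hp.ne_zero) hm0, Nat.factorization_pow]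
  simp [hp.factorization_self, Nat.factorization_eq_zero_of_not_dvd hm]

end abstract

variable {F : Type*} [Field F]

local notation "PP" => Matrix.ProjectiveSpecialLinearGroup (Fin 2) F

variable [Fintype F]

lemma card_PP11 (hF : Fintype.card F = 11) : Nat.card PP = 660 := by
  have hc2 : ringChar F ≠ 2 := by
    intro h
    rw [FiniteField.even_card_iff_char_two, hF] at h
    omega
  have h := card_PP_eq (F := F)
  rw [card_roots1_odd hc2, hF] at h
  omega

lemma two_ne_zero11 (hF : Fintype.card F = 11) : (2 : F) ≠ 0 := by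
  have hc2 : ringChar F ≠ 2 := by
    intro h
    rw [FiniteField.even_card_iff_char_two, hF] at h
    omega
  exact Ring.two_ne_zero hc2

/-- The normaliser of a subgroup of order four. -/
lemma card_normalizer_four (hF : Fintype.card F = 11) (V : Subgroup PP) (hV : Nat.card V = 4) :
    Nat.card (Subgroup.normalizer (V : Set PP)) = 12 := by
  classical
  haveI : Fact (Nat.Prime 11) := ⟨by norm_num⟩
  haveI : Fact (Nat.Prime 2) := ⟨Nat.prime_two⟩
  haveI : CharP F 11 := charP_of_card_eq_prime hF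
  obtain ⟨V₀, a, b, t, hK, haV, hbV, ha, hb, hab, hne, ha1, h1, h2, h3, htN, -⟩ := exists_triple (two_ne_zero11 hF)
  have hN0 : Nat.card (Subgroup.normalizer (V₀ : Set PP)) = 12 := by
    have hd : Nat.card (Subgroup.normalizer (V₀ : Set PP)) ∣ 660 := by
      rw [← card_PP11 hF]
      exact Subgroup.card_subgroup_dvd_card _
    rcases normalizer_klein 11 (by norm_num) V₀ hK a b t haV hbV ha hb hab hne ha1 h1 h2 h3 htN with ⟨⟨i⟩⟩ | ⟨⟨i⟩⟩
    · rw [Nat.card_congr i.toEquiv, card_A4]
    · rw [Nat.card_congr i.toEquiv, card_S4] at hd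
      norm_num at hd
  have hf : Nat.card PP = 2 ^ 2 * 165 := by rw [card_PP11 hF]; norm_num
  obtain ⟨g, hg⟩ := exists_conj_of_card 2 V V₀ (by
    rw [hf, factorization_pow_mul 2 2 165 Nat.prime_two (by norm_num), hV]
    norm_num) (by rw [hV]; exact hK.card_four)
  rw [← hN0, ← hg, card_normalizer_conj]

/-- The normaliser of a subgroup of order five. -/
lemma card_normalizer_five (hF : Fintype.card F = 11) (V : Subgroup PP) (hV : Nat.card V = 5) :
    Nat.card (Subgroup.normalizer (V : Set PP)) = 10 := by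
  classical
  haveI : Fact (Nat.Prime 5) := ⟨by norm_num⟩
  have hc2 : ringChar F ≠ 2 := by
    intro h
    rw [FiniteField.even_card_iff_char_two, hF] at h
    omega
  obtain ⟨x, hτ, hx⟩ := exists_split (F := F) (by omega)
  rw [card_roots1_odd hc2, hF] at hx
  have hc : Nat.card (CP (pi x) : Subgroup PP) = 5 := by omega
  have hf : Nat.card PP = 5 ^ 1 * 132 := by rw [card_PP11 hF]; norm_num
  obtain ⟨g, hg⟩ := exists_conj_of_card 5 V (CP (pi x)) (by
    rw [hf, factorization_pow_mul 5 1 132 (by norm_num) (by norm_num), hV]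
    norm_num) (by rw [hV, hc])
  rw [← hg] at hc
  have h1 := card_normalizer_torus x hτ
  rw [← card_normalizer_conj V g, hg, h1, ← hg, card_conj_eq, hV]

section A5

set_option maxRecDepth 1000000 in
/-- Facts about `A₅`. -/
private lemma inv_A5_aux : ∀ x : Equiv.Perm (Fin 5), Equiv.Perm.sign x = 1 → x ^ 5 = 1 → x ≠ 1 →
    ∃ w : Equiv.Perm (Fin 5), Equiv.Perm.sign w = 1 ∧ w * w = 1 ∧ w ≠ 1 ∧ w * x * w⁻¹ = x⁻¹ := by
  decide

lemma inv_A5 (x : alternatingGroup (Fin 5)) (h5 : x ^ 5 = 1) (h1 : x ≠ 1) :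
    ∃ w : alternatingGroup (Fin 5), w * w = 1 ∧ w ≠ 1 ∧ w * x * w⁻¹ = x⁻¹ := by
  obtain ⟨w, hw, h2, h3, h4⟩ := inv_A5_aux x.1 (Equiv.Perm.mem_alternatingGroup.mp x.2)
    (congrArg Subtype.val h5) (fun h => h1 (Subtype.ext h))
  exact ⟨⟨w, Equiv.Perm.mem_alternatingGroup.mpr hw⟩, Subtype.ext h2, fun h => h3 (congrArg Subtype.val h),
    Subtype.ext h4⟩

end A5

section SecH

lemma card_H5 (H : Subgroup PP) (i : H ≃* alternatingGroup (Fin 5)) : Nat.card H = 60 := by rw [Nat.card_congr i.toEquiv, card_A5]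

lemma index_H5 (hF : Fintype.card F = 11) (H : Subgroup PP) (i : H ≃* alternatingGroup (Fin 5)) : H.index = 11 := by
  have h1 := Subgroup.card_mul_index H
  rw [card_H5 H i, card_PP11 hF] at h1
  omega

/-- `H` is self-normalising. -/
lemma normalizer_H5 (hF : Fintype.card F = 11) (H : Subgroup PP) (i : H ≃* alternatingGroup (Fin 5)) : Subgroup.normalizer (H : Set PP) = H := by
  classical
  have hne : Subgroup.normalizer (H : Set PP) ≠ ⊤ := by
    apply normalizer_ne_top (by omega) H
    · rintro rfl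
      have := card_H5 _ i
      rw [Subgroup.card_bot] at this
      omega
    · rintro rfl
      have := index_H5 hF _ i
      rw [Subgroup.index_top] at this
      omega
  have hle : H ≤ Subgroup.normalizer (H : Set PP) := Subgroup.le_normalizer
  have hd : (Subgroup.normalizer (H : Set PP)).index ∣ H.index := Subgroup.index_dvd_of_le hle
  rw [index_H5 hF H i] at hd
  rcases (Nat.dvd_prime (by norm_num)).mp hd with h | h
  · exact absurd (Subgroup.index_eq_one.mp h) hne
  · symm
    apply Subgroup.eq_of_le_of_card_ge hle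
    have h1 := Subgroup.card_mul_index (Subgroup.normalizer (H : Set PP))
    rw [h, card_PP11 hF] at h1
    rw [card_H5 H i]
    omega

lemma normalizer_five_le (hF : Fintype.card F = 11) (H : Subgroup PP) (i : H ≃* alternatingGroup (Fin 5)) (V : Subgroup PP) (hVH : V ≤ H) (hV : Nat.card V = 5) :
    Subgroup.normalizer (V : Set PP) ≤ H := by
  classical
  haveI : Fact (Nat.Prime 5) := ⟨by norm_num⟩
  have hN := card_normalizer_five hF V hV
  have hnt : Nontrivial V := Finite.one_lt_card_iff_nontrivial.mp (by omega)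
  obtain ⟨u, hu⟩ := exists_ne (1 : V)
  have hu5 : u ^ 5 = 1 := by
    have := pow_card_eq_one' (x := u)
    rwa [hV] at this
  have hU : (u : PP) ^ 5 = 1 := congrArg Subtype.val hu5
  have hU1 : (u : PP) ≠ 1 := fun h => hu (Subtype.ext h)
  let u' : alternatingGroup (Fin 5) := i ⟨u, hVH u.2⟩
  have hu'5 : u' ^ 5 = 1 := by
    have e : (⟨u, hVH u.2⟩ : H) ^ 5 = 1 := Subtype.ext hU
    rw [← map_pow, e, map_one]
  have hu'1 : u' ≠ 1 := by
    intro h
    apply hU1
    have : (⟨u, hVH u.2⟩ : H) = 1 := by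
      apply i.injective
      rw [map_one]
      exact h
    exact congrArg Subtype.val this
  obtain ⟨w', hw1, hw2, hw3⟩ := inv_A5 u' hu'5 hu'1
  set w : H := i.symm w' with hw
  have hww : (w : PP) * w = 1 := by
    have : w * w = 1 := by
      rw [hw, ← map_mul, hw1, map_one]
    exact congrArg Subtype.val this
  have hw10 : (w : PP) ≠ 1 := by
    intro h
    apply hw2
    have : w = 1 := Subtype.ext h
    rw [hw] at this
    have h2 := congrArg i this
    simpa using h2
  have hconj : (w : PP) * u * (w : PP)⁻¹ = (u : PP)⁻¹ := by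
    have h1 : w * (⟨u, hVH u.2⟩ : H) * w⁻¹ = (⟨u, hVH u.2⟩ : H)⁻¹ := by
      apply i.injective
      simp only [map_mul, map_inv, hw, MulEquiv.apply_symm_apply]
      exact hw3
    exact congrArg Subtype.val h1
  -- `V` is generated by `u`
  have horder : orderOf (u : PP) = 5 := orderOf_eq_prime hU hU1
  have hzp : Subgroup.zpowers (u : PP) = V := by
    apply Subgroup.eq_of_le_of_card_ge
    · rw [Subgroup.zpowers_le]
      exact u.2
    · rw [Nat.card_zpowers, horder, hV]
  have hwN : (w : PP) ∈ Subgroup.normalizer (V : Set PP) := by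
    apply mem_normalizer_of_conj_le
    intro x hx
    rw [← hzp] at hx ⊢
    obtain ⟨k, rfl⟩ := hx
    have : (w : PP) * (u : PP) ^ k * (w : PP)⁻¹ = ((u : PP)⁻¹) ^ k := by
      rw [← hconj, conj_zpow]
    show (w : PP) * ((fun z : ℤ => (u : PP) ^ z) k) * (w : PP)⁻¹ ∈ _
    simp only
    rw [this]
    exact Subgroup.zpow_mem _ (Subgroup.inv_mem _ (Subgroup.mem_zpowers _)) _
  set D := Subgroup.normalizer (V : Set PP) ⊓ H with hD
  have hVD : V ≤ D := le_inf Subgroup.le_normalizer hVH
  have hwD : (w : PP) ∈ D := ⟨hwN, w.2⟩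
  have hwV : (w : PP) ∉ V := by
    intro h
    have h5 : ((⟨w, h⟩ : V)) ^ 5 = 1 := by
      have := pow_card_eq_one' (x := (⟨w, h⟩ : V))
      rwa [hV] at this
    have h6 : (w : PP) ^ 5 = 1 := congrArg Subtype.val h5
    apply hw10
    calc (w : PP) = (w : PP) ^ 5 * ((w : PP) * w) ⁻¹ * ((w : PP) * w)⁻¹ := by group
      _ = 1 := by rw [h6, hww]; simp
  have hdvd : Nat.card D ∣ 10 := by
    rw [← hN]
    exact Subgroup.card_dvd_of_le inf_le_left
  have h5D : 5 ∣ Nat.card D := by
    rw [← hV]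
    exact Subgroup.card_dvd_of_le hVD
  have hne : Nat.card D ≠ 5 := by
    intro h
    have : V = D := Subgroup.eq_of_le_of_card_ge hVD (by omega)
    rw [← this] at hwD
    exact hwV hwD
  have h10 : Nat.card D = 10 := by
    have h1 : Nat.card D ≤ 10 := Nat.le_of_dvd (by norm_num) hdvd
    interval_cases h : Nat.card D <;> omega
  have heq : D = Subgroup.normalizer (V : Set PP) :=
    Subgroup.eq_of_le_of_card_ge inf_le_left (by rw [hN, h10])
  rw [← heq]
  exact inf_le_right

lemma normalizer_four_le (hF : Fintype.card F = 11) (H : Subgroup PP) (i : H ≃* alternatingGroup (Fin 5)) (V : Subgroup PP) (hVH : V ≤ H) (hV : Nat.card V = 4) :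
    Subgroup.normalizer (V : Set PP) ≤ H := by
  classical
  haveI : Fact (Nat.Prime 2) := ⟨Nat.prime_two⟩
  have hN := card_normalizer_four hF V hV
  obtain ⟨K, hKH, ⟨iK⟩⟩ := exists_A4_of_A5 H i
  obtain ⟨W, hW, hWK, hKN⟩ := exists_normal_klein K iK
  have hcW : Nat.card W = 4 := hW.card_four
  have hf : Nat.card H = 2 ^ 2 * 15 := by rw [card_H5 H i]; norm_num
  obtain ⟨h, hhH, hh⟩ := exists_conj_in H V W 2 hVH (hWK.trans hKH) (by
    rw [hf, factorization_pow_mul 2 2 15 Nat.prime_two (by norm_num), hcW]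
    norm_num) (by rw [hV, hcW])
  have hK12 : Nat.card K = 12 := by rw [Nat.card_congr iK.toEquiv, card_A4]
  set D := Subgroup.normalizer (V : Set PP) ⊓ H with hD
  have hle : K.map (MulAut.conj h).toMonoidHom ≤ D := by
    apply le_inf
    · rw [← hh, normalizer_map_conj]
      exact Subgroup.map_mono hKN
    · rintro _ ⟨k, hk, rfl⟩
      exact H.mul_mem (H.mul_mem hhH (hKH hk)) (H.inv_mem hhH)
  have h12 : 12 ≤ Nat.card D := by
    rw [← hK12, ← card_conj_eq K h]
    exact Subgroup.card_le_of_le hle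
  have heq : D = Subgroup.normalizer (V : Set PP) :=
    Subgroup.eq_of_le_of_card_ge inf_le_left (by rw [hN]; exact h12)
  rw [← heq]
  exact inf_le_right

lemma mem_of_dvd_four (hF : Fintype.card F = 11) (H : Subgroup PP) (i : H ≃* alternatingGroup (Fin 5)) (g : PP) (h : 4 ∣ Nat.card ↥(H ⊓ H.map (MulAut.conj g).toMonoidHom)) : g ∈ H := by
  classical
  haveI : Fact (Nat.Prime 2) := ⟨Nat.prime_two⟩
  obtain ⟨V, hVK, hV⟩ := exists_le_card (H ⊓ H.map (MulAut.conj g).toMonoidHom) 2 2 (by rw [show (2 : ℕ) ^ 2 = 4 by norm_num]; exact h)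
  have hVH : V ≤ H := hVK.trans inf_le_left
  have hf : Nat.card H = 2 ^ 2 * 15 := by rw [card_H5 H i]; norm_num
  have h1 : g⁻¹ ∈ H := by
    apply mem_of_conj_card H V 2 hVH (by
      rw [hf, factorization_pow_mul 2 2 15 Nat.prime_two (by norm_num), hV]) (normalizer_four_le hF H i V hVH (by rw [hV]; norm_num))
    rintro _ ⟨v, hv, rfl⟩
    obtain ⟨y, hy, rfl⟩ := (hVK hv).2
    have : (MulAut.conj g⁻¹).toMonoidHom ((MulAut.conj g).toMonoidHom y) = y := by
      show g⁻¹ * (g * y * g⁻¹) * g⁻¹⁻¹ = y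
      group
    rw [this]
    exact hy
  simpa using H.inv_mem h1

lemma mem_of_dvd_five (hF : Fintype.card F = 11) (H : Subgroup PP) (i : H ≃* alternatingGroup (Fin 5)) (g : PP) (h : 5 ∣ Nat.card ↥(H ⊓ H.map (MulAut.conj g).toMonoidHom)) : g ∈ H := by
  classical
  haveI : Fact (Nat.Prime 5) := ⟨by norm_num⟩
  obtain ⟨V, hVK, hV⟩ := exists_le_card (H ⊓ H.map (MulAut.conj g).toMonoidHom) 5 1 (by simpa using h)
  have hVH : V ≤ H := hVK.trans inf_le_left
  have hf : Nat.card H = 5 ^ 1 * 12 := by rw [card_H5 H i]; norm_num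
  have h1 : g⁻¹ ∈ H := by
    apply mem_of_conj_card H V 5 hVH (by
      rw [hf, factorization_pow_mul 5 1 12 (by norm_num) (by norm_num), hV]) (normalizer_five_le hF H i V hVH (by rw [hV]; norm_num))
    rintro _ ⟨v, hv, rfl⟩
    obtain ⟨y, hy, rfl⟩ := (hVK hv).2
    have : (MulAut.conj g⁻¹).toMonoidHom ((MulAut.conj g).toMonoidHom y) = y := by
      show g⁻¹ * (g * y * g⁻¹) * g⁻¹⁻¹ = y
      group
    rw [this]
    exact hy
  simpa using H.inv_mem h1

end SecH

end Cfsg.Agent.Lib.Classical.Dick
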