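import Mathlib
import Cfsg.Agent.Lib.Classical.Dick.P11
import Cfsg.Agent.Lib.Classical.Dick.Pgl2
import Cfsg.Agent.Lib.Classical.Dick.Min
import Cfsg.Agent.Lib.Classical.Dick.Orders

/-!
The subgroups isomorphic to `A₅` of `PSL₂(11)`: the outer automorphism and the count.
-/

set_option autoImplicit false
set_option linter.unusedSimpArgs false
set_option linter.unusedVariables false

namespace Cfsg.Agent.Lib.Classical.Dick

open Matrix
open scoped MatrixGroups
open Cfsg.Agent.Lib.KS2.SL2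

section twist

variable {G X : Type*} [Group G] [Group X]

/-- The image of a subgroup under conjugation by an element of an overgroup. -/
def twist (ρ : G →* X) (ψ : X) (L : Subgroup G) : Subgroup G :=
  ((L.map ρ).map (MulAut.conj ψ).toMonoidHom).comap ρ

lemma map_twist (ρ : G →* X) (hR : ρ.range.Normal) (ψ : X) (L : Subgroup G) :
    (twist ρ ψ L).map ρ = (L.map ρ).map (MulAut.conj ψ).toMonoidHom := by
  rw [twist, Subgroup.map_comap_eq_self]
  rintro _ ⟨_, ⟨l, hl, rfl⟩, rfl⟩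
  exact hR.conj_mem _ ⟨l, rfl⟩ ψ

lemma twist_iso (ρ : G →* X) (hρ : Function.Injective ρ) (hR : ρ.range.Normal) (ψ : X) (L : Subgroup G) :
    Nonempty (twist ρ ψ L ≃* L) :=
  ⟨((twist ρ ψ L).equivMapOfInjective ρ hρ).trans ((MulEquiv.subgroupCongr (map_twist ρ hR ψ L)).trans
    ((((L.map ρ).equivMapOfInjective (MulAut.conj ψ).toMonoidHom (MulAut.conj ψ).injective).symm).trans
      (L.equivMapOfInjective ρ hρ).symm))⟩

variable [Finite G]

lemma le_twist (ρ : G →* X) (hρ : Function.Injective ρ) (hR : ρ.range.Normal) (ψ : X) (V L : Subgroup G)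
    (hψ : (V.map ρ).map (MulAut.conj ψ).toMonoidHom = V.map ρ)
    (hA : Subgroup.normalizer (V : Set G) ≤ L) : Subgroup.normalizer (V : Set G) ≤ twist ρ ψ L := by
  intro a ha
  have hy : ψ⁻¹ * ρ a * ψ ∈ ρ.range := by
    simpa using hR.conj_mem _ ⟨a, rfl⟩ ψ⁻¹
  obtain ⟨a', ha'⟩ := hy
  have hconj1 : ∀ v ∈ V, ∃ v₁ ∈ V, ψ * ρ v * ψ⁻¹ = ρ v₁ := by
    intro v hv
    have h1 : ψ * ρ v * ψ⁻¹ ∈ (V.map ρ).map (MulAut.conj ψ).toMonoidHom := ⟨ρ v, ⟨v, hv, rfl⟩, rfl⟩
    rw [hψ] at h1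
    obtain ⟨v₁, hv₁, h2⟩ := h1
    exact ⟨v₁, hv₁, h2.symm⟩
  have hconj2 : ∀ v ∈ V, ∃ v₁ ∈ V, ψ⁻¹ * ρ v * ψ = ρ v₁ := by
    intro v hv
    have h1 : ρ v ∈ (V.map ρ).map (MulAut.conj ψ).toMonoidHom := by
      rw [hψ]
      exact ⟨v, hv, rfl⟩
    obtain ⟨_, ⟨v₁, hv₁, rfl⟩, h2⟩ := h1
    refine ⟨v₁, hv₁, ?_⟩
    have h3 : ψ * ρ v₁ * ψ⁻¹ = ρ v := h2
    rw [← h3]
    group
  have hN : a' ∈ Subgroup.normalizer (V : Set G) := by
    apply mem_normalizer_of_conj_le
    intro v hv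
    obtain ⟨v₁, hv₁, e1⟩ := hconj1 v hv
    have hv₂ : a * v₁ * a⁻¹ ∈ V := (Subgroup.mem_normalizer_iff.mp ha v₁).mp hv₁
    obtain ⟨v₃, hv₃, e3⟩ := hconj2 _ hv₂
    have e : ρ (a' * v * a'⁻¹) = ρ v₃ := by
      rw [← e3, map_mul, map_mul, map_inv, ha', map_mul, map_mul, map_inv, ← e1]
      group
    rw [hρ e]
    exact hv₃
  refine ⟨ρ a', ⟨a', hA hN, rfl⟩, ?_⟩
  show ψ * ρ a' * ψ⁻¹ = ρ a
  rw [ha']
  group

lemma exists_normalizing (ρ : G →* X) (hρ : Function.Injective ρ) (hR : ρ.range.Normal) (V : Subgroup G)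
    (p : ℕ) [Fact p.Prime] (hV : Nat.card V = p ^ (Nat.card G).factorization p) (ψ₀ : X) :
    ∃ g : G, (V.map ρ).map (MulAut.conj (ρ g * ψ₀)).toMonoidHom = V.map ρ := by
  obtain ⟨j⟩ := twist_iso ρ hρ hR ψ₀ V
  have hW : Nat.card (twist ρ ψ₀ V) = Nat.card V := Nat.card_congr j.toEquiv
  obtain ⟨g, hg⟩ := exists_conj_of_card p (twist ρ ψ₀ V) V (hW.trans hV) hW.symm
  refine ⟨g, ?_⟩
  have e1 : (V.map ρ).map (MulAut.conj (ρ g * ψ₀)).toMonoidHom =
      ((V.map ρ).map (MulAut.conj ψ₀).toMonoidHom).map (MulAut.conj (ρ g)).toMonoidHom := by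
    rw [Subgroup.map_map]
    congr 1
    ext x
    simp [mul_assoc]
  rw [e1, ← map_twist ρ hR ψ₀ V]
  conv_rhs => rw [← hg]
  rw [Subgroup.map_map, Subgroup.map_map]
  congr 1
  ext x
  simp [mul_assoc]

end twist

/-- The size of a conjugacy class of a self-normalising subgroup. -/
lemma ncard_conj_class {G : Type*} [Group G] [Finite G] (H : Subgroup G)
    (hN : Subgroup.normalizer (H : Set G) = H) :
    {M : Subgroup G | ∃ g : G, M = H.map (MulAut.conj g).toMonoidHom}.ncard = H.index := by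
  classical
  let f : G ⧸ H → Subgroup G := fun q => H.map (MulAut.conj q.out).toMonoidHom
  have hkey : ∀ a b : G, H.map (MulAut.conj a).toMonoidHom = H.map (MulAut.conj b).toMonoidHom ↔ a⁻¹ * b ∈ H := by
    intro a b
    constructor
    · intro h
      rw [← hN]
      apply mem_normalizer_of_conj_le
      intro x hx
      have h1 : b * x * b⁻¹ ∈ H.map (MulAut.conj b).toMonoidHom := ⟨x, hx, rfl⟩
      rw [← h] at h1
      obtain ⟨y, hy, h2⟩ := h1
      have h3 : a * y * a⁻¹ = b * x * b⁻¹ := h2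
      have h4 : a⁻¹ * b * x * (a⁻¹ * b)⁻¹ = y := by
        have : y = a⁻¹ * (b * x * b⁻¹) * a := by rw [← h3]; group
        rw [this]
        group
      rw [h4]
      exact hy
    · intro h
      obtain ⟨c, hc, rfl⟩ : ∃ c ∈ H, b = a * c := ⟨a⁻¹ * b, h, by group⟩
      ext x
      constructor
      · rintro ⟨y, hy, rfl⟩
        refine ⟨c⁻¹ * y * c, H.mul_mem (H.mul_mem (H.inv_mem hc) hy) hc, ?_⟩
        show a * c * (c⁻¹ * y * c) * (a * c)⁻¹ = a * y * a⁻¹
        group
      · rintro ⟨y, hy, rfl⟩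
        refine ⟨c * y * c⁻¹, H.mul_mem (H.mul_mem hc hy) (H.inv_mem hc), ?_⟩
        show a * (c * y * c⁻¹) * a⁻¹ = a * c * y * (a * c)⁻¹
        group
  have hinj : Function.Injective f := by
    intro q r h
    have := (hkey _ _).mp h
    rw [← Quotient.out_eq' q, ← Quotient.out_eq' r]
    exact QuotientGroup.eq.mpr this
  have hrange : {M : Subgroup G | ∃ g : G, M = H.map (MulAut.conj g).toMonoidHom} = Set.range f := by
    ext M
    constructor
    · rintro ⟨g, rfl⟩
      refine ⟨(g : G ⧸ H), ?_⟩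
      show H.map (MulAut.conj (g : G ⧸ H).out).toMonoidHom = _
      rw [hkey]
      have : ((g : G ⧸ H).out : G ⧸ H) = (g : G ⧸ H) := Quotient.out_eq' _
      exact QuotientGroup.eq.mp this
    · rintro ⟨q, rfl⟩
      exact ⟨q.out, rfl⟩
  rw [hrange, ← Set.image_univ, Set.ncard_image_of_injective _ hinj, Set.ncard_univ]
  rfl

variable {F : Type*} [Field F] [Fintype F]

local notation "PP" => Matrix.ProjectiveSpecialLinearGroup (Fin 2) F
local notation "PG" => Matrix.ProjGenLinGroup (Fin 2) F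

/-- The normaliser of a copy of `A₅` in `PGL₂(11)` lies in `PSL₂(11)`. -/
lemma twist_ne (hF : Fintype.card F = 11) (L : Subgroup PP) (i : L ≃* alternatingGroup (Fin 5)) (ψ : PG)
    (hψ : ψ ∉ (rhoP : PP →* PG).range) : twist rhoP ψ L ≠ L := by
  classical
  intro h
  haveI : Fact (Nat.Prime 11) := ⟨by norm_num⟩
  haveI : CharP F 11 := charP_of_card_eq_prime hF
  have h2 : (2 : F) ≠ 0 := two_ne_zero11 hF
  have hρ : Function.Injective (rhoP : PP →* PG) := rhoP_injective
  have hidx : (rhoP : PP →* PG).range.index = 2 := by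
    rw [range_rhoP]
    exact index_range_slG h2
  have hR : (rhoP : PP →* PG).range.Normal := Subgroup.normal_of_index_eq_two hidx
  set L' := L.map (rhoP : PP →* PG) with hL'
  have hcL' : Nat.card L' = 60 := by
    rw [← card_H5 L i]
    exact Nat.card_congr (L.equivMapOfInjective _ hρ).toEquiv.symm
  have hψN : L'.map (MulAut.conj ψ).toMonoidHom = L' := by
    rw [← map_twist _ hR, h]
  set N := Subgroup.normalizer (L' : Set PG) with hN
  have hψmem : ψ ∈ N := by
    apply mem_normalizer_of_conj_le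
    intro x hx
    have : ψ * x * ψ⁻¹ ∈ L'.map (MulAut.conj ψ).toMonoidHom := ⟨x, hx, rfl⟩
    rwa [hψN] at this
  have hinf : N ⊓ (rhoP : PP →* PG).range = L' := by
    apply le_antisymm
    · rintro y ⟨hy1, u, rfl⟩
      have hu : u ∈ Subgroup.normalizer (L : Set PP) := by
        apply mem_normalizer_of_conj_le
        intro l hl
        have h3 : rhoP u * rhoP l * (rhoP u)⁻¹ ∈ L' :=
          (Subgroup.mem_normalizer_iff.mp hy1 _).mp ⟨l, hl, rfl⟩
        rw [← map_inv, ← map_mul, ← map_mul] at h3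
        exact (Subgroup.mem_map_iff_mem hρ).mp h3
      rw [normalizer_H5 hF L i] at hu
      exact ⟨u, hu, rfl⟩
    · apply le_inf
      · exact Subgroup.le_normalizer
      · rintro _ ⟨l, -, rfl⟩
        exact ⟨l, rfl⟩
  have hrel : (rhoP : PP →* PG).range.relIndex N = 2 := by
    have hd := Subgroup.relIndex_dvd_index_of_normal (rhoP : PP →* PG).range N
    rw [hidx] at hd
    rcases (Nat.dvd_prime Nat.prime_two).mp hd with h1 | h1
    · exfalso
      rw [Subgroup.relIndex_eq_one] at h1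
      exact hψ (h1 hψmem)
    · exact h1
  have hcN : Nat.card N = 120 := by
    have h3 := Subgroup.card_mul_index ((rhoP : PP →* PG).range.subgroupOf N)
    have h4 : Nat.card ((rhoP : PP →* PG).range.subgroupOf N) = 60 := by
      rw [← hcL', ← hinf, inf_comm, ← Subgroup.subgroupOf_map_subtype]
      exact Nat.card_congr (Subgroup.equivMapOfInjective _ _ N.subtype_injective).toEquiv
    have h5 : ((rhoP : PP →* PG).range.subgroupOf N).index = 2 := hrel
    rw [h4, h5] at h3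
    omega
  -- the list
  have hL'N : L' ≤ N := Subgroup.le_normalizer
  have hnotsol : ¬ Group.IsSolvable N := by
    intro hsol
    have h3 : Group.IsSolvable L' := by
      let φ : L' →* N := Subgroup.inclusion hL'N
      exact solvable_of_solvable_injective (f := φ) (Subgroup.inclusion_injective hL'N)
    have h4 : Group.IsSolvable (alternatingGroup (Fin 5)) := by
      let e : L' ≃* alternatingGroup (Fin 5) := (L.equivMapOfInjective _ hρ).symm.trans i
      exact solvable_of_surjective (f := e.toMonoidHom) e.surjective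
    exact not_solvable_A5 h4
  rcases pgl_types 11 N with ⟨k, ⟨hc, -⟩ | ⟨⟨j⟩⟩⟩ | ⟨S, hS1, -, hS3⟩ | ⟨⟨j⟩⟩ | ⟨⟨j⟩⟩ | ⟨⟨j⟩⟩ | ⟨E, _, _, m, hE, hm, hiso⟩
  · apply hnotsol
    exact isSolvable_of_comm (fun a b => hc.commutative.is_comm.comm a b)
  · apply hnotsol
    haveI := solvable_dihedral k
    exact solvable_of_surjective (f := j.symm.toMonoidHom) j.symm.surjective
  · obtain ⟨n, hn⟩ := IsPGroup.iff_card.mp hS1
    have hd : Nat.card S ∣ 120 := by
      rw [← hcN]
      exact Subgroup.card_subgroup_dvd_card _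
    rw [hn] at hd
    rcases Nat.eq_zero_or_pos n with rfl | hnpos
    · rw [pow_zero] at hn
      exact hS3 (Subgroup.eq_bot_of_card_eq S hn)
    · have : 11 ∣ 120 := (dvd_pow_self 11 hnpos.ne').trans hd
      norm_num at this
  · have := Nat.card_congr j.toEquiv
    rw [hcN, card_A4] at this
    omega
  · have := Nat.card_congr j.toEquiv
    rw [hcN, card_S4] at this
    omega
  · have := Nat.card_congr j.toEquiv
    rw [hcN, card_A5] at this
    omega
  · have hm0 : m ≠ 0 := by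
      rintro rfl
      rw [hF] at hm
      norm_num at hm
    have hd : Fintype.card E ∣ 11 ^ 2 := by
      have : Fintype.card E ∣ Fintype.card E ^ m := dvd_pow_self _ hm0
      rwa [hm, hF] at this
    obtain ⟨t, ht, htE⟩ := (Nat.dvd_prime_pow (by norm_num)).mp hd
    have hcases : Fintype.card E = 11 ∨ Fintype.card E = 121 := by
      interval_cases t
      · rw [htE] at hE
        norm_num at hE
      · left; rw [htE]; norm_num
      · right; rw [htE]; norm_num
    have hq : Fintype.card E * (Fintype.card E ^ 2 - 1) ≥ 1320 := by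
      rcases hcases with h | h <;> rw [h] <;> norm_num
    rcases hiso with ⟨⟨j⟩⟩ | ⟨⟨j⟩⟩
    · have h5 := card_PSL2' E
      have hc := Nat.card_congr j.toEquiv
      rw [hcN] at hc
      rw [← hc] at h5
      have h6 : Nat.card (Roots1 E) ≤ 2 := by
        by_cases hc2 : ringChar E = 2
        · rw [card_roots1_two hc2]; norm_num
        · rw [card_roots1_odd hc2]
      have : Nat.card (Roots1 E) * 120 ≤ 2 * 120 := Nat.mul_le_mul_right _ h6
      omega
    · have h5 := card_PGL2 E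
      have hc := Nat.card_congr j.toEquiv
      rw [hcN] at hc
      rw [← hc] at h5
      omega

set_option maxRecDepth 1000000 in
/-- Facts about `A₅`. -/
private lemma inv3_A5_aux : ∀ x : Equiv.Perm (Fin 5), Equiv.Perm.sign x = 1 → x ^ 3 = 1 → x ≠ 1 →
    ∃ w : Equiv.Perm (Fin 5), Equiv.Perm.sign w = 1 ∧ w * w = 1 ∧ w ≠ 1 ∧ w * x * w⁻¹ = x⁻¹ := by
  decide

lemma inv3_A5 (x : alternatingGroup (Fin 5)) (h5 : x ^ 3 = 1) (h1 : x ≠ 1) :
    ∃ w : alternatingGroup (Fin 5), w * w = 1 ∧ w ≠ 1 ∧ w * x * w⁻¹ = x⁻¹ := by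
  obtain ⟨w, hw, h2, h3, h4⟩ := inv3_A5_aux x.1 (Equiv.Perm.mem_alternatingGroup.mp x.2)
    (congrArg Subtype.val h5) (fun h => h1 (Subtype.ext h))
  exact ⟨⟨w, Equiv.Perm.mem_alternatingGroup.mpr hw⟩, Subtype.ext h2, fun h => h3 (congrArg Subtype.val h),
    Subtype.ext h4⟩

/-- The normaliser of a subgroup of order four is `A₄`. -/
lemma normalizer_four_iso (hF : Fintype.card F = 11) (V : Subgroup PP) (hV : Nat.card V = 4) :
    Nonempty (Subgroup.normalizer (V : Set PP) ≃* alternatingGroup (Fin 4)) := by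
  classical
  haveI : Fact (Nat.Prime 11) := ⟨by norm_num⟩
  haveI : Fact (Nat.Prime 2) := ⟨Nat.prime_two⟩
  haveI : CharP F 11 := charP_of_card_eq_prime hF
  obtain ⟨V₀, a, b, t, hK, haV, hbV, ha, hb, hab, hne, ha1, h1, h2, h3, htN, -⟩ := exists_triple (two_ne_zero11 hF)
  have hN0 : Nonempty (Subgroup.normalizer (V₀ : Set PP) ≃* alternatingGroup (Fin 4)) := by
    have hd : Nat.card (Subgroup.normalizer (V₀ : Set PP)) ∣ 660 := by
      rw [← card_PP11 hF]
      exact Subgroup.card_subgroup_dvd_card _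
    rcases normalizer_klein 11 (by norm_num) V₀ hK a b t haV hbV ha hb hab hne ha1 h1 h2 h3 htN with ⟨⟨i⟩⟩ | ⟨⟨i⟩⟩
    · exact ⟨i⟩
    · rw [Nat.card_congr i.toEquiv, card_S4] at hd
      norm_num at hd
  obtain ⟨j⟩ := hN0
  have hf : Nat.card PP = 2 ^ 2 * 165 := by rw [card_PP11 hF]; norm_num
  obtain ⟨g, hg⟩ := exists_conj_of_card 2 V V₀ (by
    rw [hf, factorization_pow_mul 2 2 165 Nat.prime_two (by norm_num), hV]
    norm_num) (by rw [hV]; exact hK.card_four)
  have e : Subgroup.normalizer (V₀ : Set PP) = (Subgroup.normalizer (V : Set PP)).map (MulAut.conj g).toMonoidHom := by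
    rw [← hg, normalizer_map_conj]
  exact ⟨((Subgroup.normalizer (V : Set PP)).equivMapOfInjective _ (MulAut.conj g).injective).trans
    ((MulEquiv.subgroupCongr e.symm).trans j)⟩

lemma pi_sq_of_tr_zero (x : SL(2, F)) (h0 : tr x = 0) : (pi x : PP) * pi x = 1 := by
  have hε : (-1 : F) * (-1) = 1 := by ring
  have hinv : x⁻¹ = sc (-1) hε * x := by
    symm
    apply eq_inv_of_mul_eq_one_left
    have hd := det_rel x
    have h01 : (x : Matrix (Fin 2) (Fin 2) F) 1 1 = - (x : Matrix (Fin 2) (Fin 2) F) 0 0 := by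
      have : (x : Matrix (Fin 2) (Fin 2) F) 0 0 + (x : Matrix (Fin 2) (Fin 2) F) 1 1 = 0 := h0
      linear_combination this
    rw [h01] at hd
    ext i j
    fin_cases i <;> fin_cases j <;>
      simp [mul00, mul01, mul10, mul11, sc00, sc01, sc10, sc11, h01]
    · linear_combination hd
    · ring
    · ring
    · linear_combination hd
  have h1 : (pi x : PP)⁻¹ = pi x := by
    rw [← map_inv, hinv, map_mul, sc_pi, one_mul]
  calc (pi x : PP) * pi x = (pi x : PP) * (pi x : PP)⁻¹ := by rw [h1]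
    _ = 1 := by group

/-- The centraliser of an element of order three. -/
lemma card_cent_three (hF : Fintype.card F = 11) (b : PP) (h3 : b ^ 3 = 1) (h1 : b ≠ 1) :
    Nat.card (Subgroup.centralizer ({b} : Set PP)) = 6 := by
  classical
  have hc2 : ringChar F ≠ 2 := by
    intro h
    rw [FiniteField.even_card_iff_char_two, hF] at h
    omega
  have hx : (pi (lf b) : PP) = b := pi_lf b
  have hns : ¬ IsScalar (lf b) := by
    intro h
    apply h1
    rw [← hx]
    exact (pi_eq_one_iff _).mpr h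
  have hord : orderOf b = 3 := orderOf_eq_prime h3 h1
  have hbC : b ∈ Subgroup.centralizer ({b} : Set PP) := by
    rw [Subgroup.mem_centralizer_singleton_iff]
  have hd : 3 ∣ Nat.card (Subgroup.centralizer ({b} : Set PP)) := by
    rw [← hord]
    exact Subgroup.orderOf_dvd_natCard _ hbC
  have hR := card_roots1_odd hc2
  by_cases hτ : (tr (lf b)) ^ 2 = 4
  · have h2 := card_cent_unip (lf b) hns hτ
    rw [hx, hF] at h2
    rw [h2] at hd
    norm_num at hd
  by_cases h0 : tr (lf b) = 0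
  · exfalso
    have h2 := pi_sq_of_tr_zero (lf b) h0
    rw [hx] at h2
    apply h1
    calc b = b ^ 3 * (b * b)⁻¹ := by group
      _ = 1 := by rw [h3, h2]; simp
  by_cases hroot : ∃ u : F, u ^ 2 - tr (lf b) * u + 1 = 0
  · obtain ⟨u, hu⟩ := hroot
    have h2 := card_cent_split (lf b) hτ u hu (Or.inr h0)
    rw [hx, hR, hF] at h2
    omega
  · push_neg at hroot
    have h2 := card_cent_nonsplit (lf b) hτ hroot (Or.inr h0)
    rw [hx, hR, hF] at h2
    omega

/-- Two copies of `A₅` over a common subgroup of order 12 sharing a further element agree. -/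
lemma eq_of_common (L₁ L₂ A : Subgroup PP) (h1 : Nat.card L₁ = 60) (h2 : Nat.card L₂ = 60)
    (hA : Nat.card A = 12) (hA1 : A ≤ L₁) (hA2 : A ≤ L₂) (x : PP) (hx1 : x ∈ L₁) (hx2 : x ∈ L₂) (hx : x ∉ A) :
    L₁ = L₂ := by
  classical
  set D := L₁ ⊓ L₂ with hD
  have hAD : A ≤ D := le_inf hA1 hA2
  have h12 : 12 ∣ Nat.card D := by
    rw [← hA]
    exact Subgroup.card_dvd_of_le hAD
  have h60 : Nat.card D ∣ 60 := by
    rw [← h1]
    exact Subgroup.card_dvd_of_le inf_le_left
  have hne : Nat.card D ≠ 12 := by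
    intro h
    have : A = D := Subgroup.eq_of_le_of_card_ge hAD (by omega)
    apply hx
    rw [this]
    exact ⟨hx1, hx2⟩
  have hle : Nat.card D ≤ 60 := Nat.le_of_dvd (by norm_num) h60
  have arith : ∀ n < 61, 12 ∣ n → n ∣ 60 → n ≠ 12 → n = 60 := by decide
  have hD60 := arith _ (by omega) h12 h60 hne
  have e1 : D = L₁ := Subgroup.eq_of_le_of_card_ge inf_le_left (by omega)
  have e2 : D = L₂ := Subgroup.eq_of_le_of_card_ge inf_le_right (by omega)
  rw [← e1, e2]

/-- An involution of `L` inverting a given element of order three of the `A₄`. -/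
lemma exists_inv_of_L (hF : Fintype.card F = 11) (V : Subgroup PP) (hV : Nat.card V = 4) (b : PP) (hb3 : b ^ 3 = 1)
    (hb1 : b ≠ 1) (hbA : b ∈ Subgroup.normalizer (V : Set PP)) (L : Subgroup PP) (i : L ≃* alternatingGroup (Fin 5))
    (hA : Subgroup.normalizer (V : Set PP) ≤ L) :
    ∃ x ∈ L, x * x = 1 ∧ x * b * x⁻¹ = b⁻¹ ∧ x ∉ Subgroup.normalizer (V : Set PP) := by
  classical
  let b' : alternatingGroup (Fin 5) := i ⟨b, hA hbA⟩
  have hb'3 : b' ^ 3 = 1 := by
    have e : (⟨b, hA hbA⟩ : L) ^ 3 = 1 := Subtype.ext hb3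
    rw [← map_pow, e, map_one]
  have hb'1 : b' ≠ 1 := by
    intro h
    apply hb1
    have : (⟨b, hA hbA⟩ : L) = 1 := by
      apply i.injective
      rw [map_one]
      exact h
    exact congrArg Subtype.val this
  obtain ⟨w', hw1, hw2, hw3⟩ := inv3_A5 b' hb'3 hb'1
  set w : L := i.symm w' with hw
  have hww : (w : PP) * w = 1 := by
    have : w * w = 1 := by
      rw [hw, ← map_mul, hw1, map_one]
    exact congrArg Subtype.val this
  have hw10 : (w : PP) ≠ 1 := by
    intro h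
    apply hw2
    have : w = 1 := Subtype.ext h
    rw [hw] at this
    have h2 := congrArg i this
    simpa using h2
  have hconj : (w : PP) * b * (w : PP)⁻¹ = b⁻¹ := by
    have h1 : w * (⟨b, hA hbA⟩ : L) * w⁻¹ = (⟨b, hA hbA⟩ : L)⁻¹ := by
      apply i.injective
      simp only [map_mul, map_inv, hw, MulEquiv.apply_symm_apply]
      exact hw3
    exact congrArg Subtype.val h1
  refine ⟨w, w.2, hww, hconj, fun hwA => ?_⟩
  obtain ⟨j⟩ := normalizer_four_iso hF V hV
  have hbb : (⟨b, hbA⟩ : Subgroup.normalizer (V : Set PP)) ^ 3 = 1 := Subtype.ext hb3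
  have hbb1 : (⟨b, hbA⟩ : Subgroup.normalizer (V : Set PP)) ≠ 1 := fun h => hb1 (congrArg Subtype.val h)
  have hww2 : (⟨w, hwA⟩ : Subgroup.normalizer (V : Set PP)) * ⟨w, hwA⟩ = 1 := Subtype.ext hww
  have hww1 : (⟨w, hwA⟩ : Subgroup.normalizer (V : Set PP)) ≠ 1 := fun h => hw10 (congrArg Subtype.val h)
  have hcc : (⟨w, hwA⟩ : Subgroup.normalizer (V : Set PP)) * ⟨b, hbA⟩ * (⟨w, hwA⟩ : Subgroup.normalizer (V : Set PP))⁻¹ =
      (⟨b, hbA⟩ : Subgroup.normalizer (V : Set PP))⁻¹ := Subtype.ext hconj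
  apply no_S3_in_A4 (j ⟨w, hwA⟩) (j ⟨b, hbA⟩)
  · rw [← map_mul, hww2, map_one]
  · intro h
    apply hww1
    apply j.injective
    rw [map_one]
    exact h
  · rw [← map_pow, hbb, map_one]
  · intro h
    apply hbb1
    apply j.injective
    rw [map_one]
    exact h
  · rw [← map_inv, ← map_inv, ← map_mul, ← map_mul, hcc]

/-- Among three copies of `A₅` containing the normaliser of a subgroup of order four, two agree. -/
lemma two_of_three (hF : Fintype.card F = 11) (V : Subgroup PP) (hV : Nat.card V = 4)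
    (L₁ L₂ L₃ : Subgroup PP) (i₁ : L₁ ≃* alternatingGroup (Fin 5)) (i₂ : L₂ ≃* alternatingGroup (Fin 5))
    (i₃ : L₃ ≃* alternatingGroup (Fin 5)) (h₁ : Subgroup.normalizer (V : Set PP) ≤ L₁)
    (h₂ : Subgroup.normalizer (V : Set PP) ≤ L₂) (h₃ : Subgroup.normalizer (V : Set PP) ≤ L₃) :
    L₁ = L₂ ∨ L₂ = L₃ ∨ L₁ = L₃ := by
  classical
  haveI : Fact (Nat.Prime 3) := ⟨Nat.prime_three⟩
  set A := Subgroup.normalizer (V : Set PP) with hA
  have hA12 : Nat.card A = 12 := card_normalizer_four hF V hV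
  obtain ⟨b₀, hb₀⟩ := exists_prime_orderOf_dvd_card' (G := A) 3 (by rw [hA12]; norm_num)
  have hb3₀ : b₀ ^ 3 = 1 := by rw [← hb₀]; exact pow_orderOf_eq_one b₀
  have hb1₀ : b₀ ≠ 1 := by
    rintro rfl
    rw [orderOf_one] at hb₀
    omega
  set b : PP := b₀.1 with hb
  have hbA : b ∈ A := b₀.2
  have hb3 : b ^ 3 = 1 := congrArg Subtype.val hb3₀
  have hb1 : b ≠ 1 := fun h => hb1₀ (Subtype.ext h)
  have hord : orderOf b = 3 := orderOf_eq_prime hb3 hb1
  obtain ⟨x₁, hx₁, hxx₁, hc₁, hn₁⟩ := exists_inv_of_L hF V hV b hb3 hb1 hbA L₁ i₁ h₁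
  obtain ⟨x₂, hx₂, hxx₂, hc₂, hn₂⟩ := exists_inv_of_L hF V hV b hb3 hb1 hbA L₂ i₂ h₂
  obtain ⟨x₃, hx₃, hxx₃, hc₃, hn₃⟩ := exists_inv_of_L hF V hV b hb3 hb1 hbA L₃ i₃ h₃
  set C := Subgroup.centralizer ({b} : Set PP) with hC
  have hcC : Nat.card C = 6 := card_cent_three hF b hb3 hb1
  set B := Subgroup.zpowers b with hB
  have hcB : Nat.card B = 3 := by rw [hB, Nat.card_zpowers, hord]
  have hBC : B ≤ C := by
    rw [hB, Subgroup.zpowers_le, hC, Subgroup.mem_centralizer_singleton_iff]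
  have hBA : B ≤ A := by
    rw [hB, Subgroup.zpowers_le]
    exact hbA
  have hidx : (B.subgroupOf C).index = 2 := by
    have h1 := Subgroup.card_mul_index (B.subgroupOf C)
    have h2 : Nat.card (B.subgroupOf C) = 3 := by
      rw [← hcB]
      exact Nat.card_congr (Subgroup.subgroupOfEquivOfLe hBC).toEquiv
    rw [h2, hcC] at h1
    omega
  have hprod : ∀ x y : PP, x * b * x⁻¹ = b⁻¹ → y * b * y⁻¹ = b⁻¹ → x * y ∈ C := by
    intro x y hx hy
    rw [hC, Subgroup.mem_centralizer_singleton_iff]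
    have e1 : y * b = b⁻¹ * y := by
      calc y * b = y * b * y⁻¹ * y := by group
        _ = b⁻¹ * y := by rw [hy]
    have e2 : x * b⁻¹ = b * x := by
      have h3 : x * b⁻¹ * x⁻¹ = b := by
        have : x * b⁻¹ * x⁻¹ = (x * b * x⁻¹)⁻¹ := by group
        rw [this, hx]
        group
      calc x * b⁻¹ = x * b⁻¹ * x⁻¹ * x := by group
        _ = b * x := by rw [h3]
    calc x * y * b = x * (y * b) := by group
      _ = x * (b⁻¹ * y) := by rw [e1]
      _ = (x * b⁻¹) * y := by group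
      _ = (b * x) * y := by rw [e2]
      _ = b * (x * y) := by group
  have h601 := card_H5 L₁ i₁
  have h602 := card_H5 L₂ i₂
  have h603 := card_H5 L₃ i₃
  have hmem : ∀ (x y : PP) (L : Subgroup PP), x ∈ L → A ≤ L → x * x = 1 → x * y ∈ B → y ∈ L := by
    intro x y L hx hAL hxx hxy
    have e : y = x⁻¹ * (x * y) := by group
    rw [e]
    exact L.mul_mem (L.inv_mem hx) (hAL (hBA hxy))
  by_cases hc12 : x₁ * x₂ ∈ B
  · left
    exact eq_of_common L₁ L₂ A h601 h602 hA12 h₁ h₂ x₂ (hmem x₁ x₂ L₁ hx₁ h₁ hxx₁ hc12) hx₂ hn₂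
  by_cases hc23 : x₂ * x₃ ∈ B
  · right; left
    exact eq_of_common L₂ L₃ A h602 h603 hA12 h₂ h₃ x₃ (hmem x₂ x₃ L₂ hx₂ h₂ hxx₂ hc23) hx₃ hn₃
  right; right
  have h1 := (Subgroup.mul_mem_iff_of_index_two hidx (a := ⟨x₁ * x₂, hprod x₁ x₂ hc₁ hc₂⟩) (b := ⟨x₂ * x₃, hprod x₂ x₃ hc₂ hc₃⟩)).mpr
    ⟨fun h => absurd h hc12, fun h => absurd h hc23⟩
  have h2 : x₁ * x₃ ∈ B := by
    have h3 : (x₁ * x₂) * (x₂ * x₃) ∈ B := h1
    have e : (x₁ * x₂) * (x₂ * x₃) = x₁ * x₃ := by
      calc (x₁ * x₂) * (x₂ * x₃) = x₁ * (x₂ * x₂) * x₃ := by group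
        _ = x₁ * x₃ := by rw [hxx₂]; group
    rwa [e] at h3
  exact eq_of_common L₁ L₃ A h601 h603 hA12 h₁ h₃ x₃ (hmem x₁ x₃ L₁ hx₁ h₁ hxx₁ h2) hx₃ hn₃

/-- Every copy of `A₅` has a conjugate containing the given normaliser. -/
lemma exists_conj_contains (hF : Fintype.card F = 11) (V : Subgroup PP) (hV : Nat.card V = 4) (L : Subgroup PP)
    (i : L ≃* alternatingGroup (Fin 5)) :
    ∃ g : PP, Subgroup.normalizer (V : Set PP) ≤ L.map (MulAut.conj g).toMonoidHom := by
  classical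
  haveI : Fact (Nat.Prime 2) := ⟨Nat.prime_two⟩
  obtain ⟨K, hKL, ⟨iK⟩⟩ := exists_A4_of_A5 L i
  obtain ⟨W, hW, hWK, hKN⟩ := exists_normal_klein K iK
  have hcW : Nat.card W = 4 := hW.card_four
  have hf : Nat.card PP = 2 ^ 2 * 165 := by rw [card_PP11 hF]; norm_num
  obtain ⟨g, hg⟩ := exists_conj_of_card 2 W V (by
    rw [hf, factorization_pow_mul 2 2 165 Nat.prime_two (by norm_num), hcW]
    norm_num) (by rw [hV, hcW])
  refine ⟨g, ?_⟩
  have i' : L.map (MulAut.conj g).toMonoidHom ≃* alternatingGroup (Fin 5) :=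
    (L.equivMapOfInjective _ (MulAut.conj g).injective).symm.trans i
  apply normalizer_four_le hF _ i' V _ hV
  rw [← hg]
  exact Subgroup.map_mono (hWK.trans hKL)

end Cfsg.Agent.Lib.Classical.Dick
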