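import Mathlib
import Cfsg.Agent.Lib.Classical.Dick.SLp2
import Cfsg.Agent.Lib.Classical.Dick.Gen
import Cfsg.Agent.Lib.Classical.AutCount

/-!
A `p`-element of `SL₂(F)` acting non-trivially on a `p'`-subgroup.
-/

set_option autoImplicit false
set_option linter.unusedSimpArgs false
set_option linter.unusedVariables false

namespace Cfsg.Agent.Lib.Classical.Dick

open Subgroup
open scoped MatrixGroups
open Cfsg.Agent.Lib.KS2.SL2

section grp

variable {G : Type*} [Group G] {R : Subgroup G} {a : G}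

lemma conj_mem_of_zpow (h : a ∈ normalizer (R : Set G)) (i : ℤ) {r : G} (hr : r ∈ R) : a ^ i * r * a ^ (-i) ∈ R := by
  have h1 : a ^ i ∈ normalizer (R : Set G) := Subgroup.zpow_mem _ h i
  have h2 := (Subgroup.mem_normalizer_iff.mp h1 r).mp hr
  rwa [zpow_neg]

/-- Elements of `R ⊔ ⟨a⟩`. -/
lemma mem_sup_form (h : a ∈ normalizer (R : Set G)) {x : G} (hx : x ∈ R ⊔ zpowers a) :
    ∃ r ∈ R, ∃ i : ℤ, x = r * a ^ i := by
  let T : Subgroup G :=
    { carrier := {x | ∃ r ∈ R, ∃ i : ℤ, x = r * a ^ i}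
      mul_mem' := by
        rintro _ _ ⟨r, hr, i, rfl⟩ ⟨s, hs, j, rfl⟩
        refine ⟨r * (a ^ i * s * a ^ (-i)), R.mul_mem hr (conj_mem_of_zpow h i hs), i + j, ?_⟩
        rw [zpow_add, zpow_neg]
        group
      one_mem' := ⟨1, R.one_mem, 0, by simp⟩
      inv_mem' := by
        rintro _ ⟨r, hr, i, rfl⟩
        refine ⟨a ^ (-i) * r⁻¹ * a ^ (- -i), conj_mem_of_zpow h (-i) (R.inv_mem hr), -i, ?_⟩
        rw [neg_neg, zpow_neg]
        group }
  have hle : R ⊔ zpowers a ≤ T := by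
    apply sup_le
    · intro r hr
      exact ⟨r, hr, 0, by simp⟩
    · rw [zpowers_le]
      exact ⟨1, R.one_mem, 1, by simp⟩
  exact hle hx

lemma pow_form (h : a ∈ normalizer (R : Set G)) {r : G} (hr : r ∈ R) (i : ℤ) (n : ℕ) :
    ∃ r' ∈ R, (r * a ^ i) ^ n = r' * a ^ (i * n) := by
  induction n with
  | zero => exact ⟨1, R.one_mem, by simp⟩
  | succ n ih =>
    obtain ⟨r', hr', e⟩ := ih
    refine ⟨r' * (a ^ (i * n) * r * a ^ (-(i * n))), R.mul_mem hr' (conj_mem_of_zpow h _ hr), ?_⟩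
    rw [pow_succ, e, zpow_neg]
    push_cast
    rw [mul_add, mul_one, zpow_add]
    group

/-- Elements of order prime to `p` lie in `R`. -/
lemma mem_of_coprime [Finite R] {p : ℕ} [Fact p.Prime] (h : a ∈ normalizer (R : Set G)) (hR : (Nat.card R).Coprime p) {c : ℕ}
    (hc : a ^ p ^ c = 1) {x : G} (hx : x ∈ R ⊔ zpowers a) (n : ℕ) (hn : n.Coprime p) (hxn : x ^ n = 1) : x ∈ R := by
  obtain ⟨r, hr, i, rfl⟩ := mem_sup_form h hx
  obtain ⟨r', hr', e⟩ := pow_form h hr i n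
  rw [hxn] at e
  have hy : a ^ (i * n) ∈ R := by
    have : a ^ (i * n) = r'⁻¹ := by
      rw [eq_inv_iff_mul_eq_one]
      have e' : a ^ (i * n) = r'⁻¹ := by
        rw [eq_inv_iff_mul_eq_one]
        have := e.symm
        have h9 : a ^ (i * (n : ℤ)) * r' = r'⁻¹ * (r' * a ^ (i * (n : ℤ))) * r' := by group
        rw [h9, this, mul_one, inv_mul_cancel]
      rw [e', inv_mul_cancel]
    rw [this]
    exact R.inv_mem hr'
  have hy1 : a ^ (i * n) = 1 := by
    have h1 : orderOf (⟨_, hy⟩ : R) ∣ Nat.card R := orderOf_dvd_natCard _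
    have h2 : orderOf (⟨_, hy⟩ : R) = orderOf (a ^ (i * n)) := Subgroup.orderOf_mk _ _
    have h3 : orderOf (a ^ (i * n)) ∣ p ^ c := by
      apply orderOf_dvd_of_pow_eq_one
      rw [← zpow_natCast, ← zpow_mul, mul_comm, zpow_mul, zpow_natCast, hc, one_zpow]
    rw [h2] at h1
    have h4 : (Nat.card R).Coprime (p ^ c) := Nat.Coprime.pow_right c hR
    exact orderOf_eq_one_iff.mp (Nat.Coprime.eq_one_of_dvd (Nat.Coprime.coprime_dvd_left h1 h4) h3)
  have hz : a ^ i = 1 := by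
    have h1 : orderOf (a ^ i) ∣ n := by
      apply orderOf_dvd_of_pow_eq_one
      rw [← zpow_natCast, ← zpow_mul]
      exact hy1
    have h3 : orderOf (a ^ i) ∣ p ^ c := by
      apply orderOf_dvd_of_pow_eq_one
      rw [← zpow_natCast, ← zpow_mul, mul_comm, zpow_mul, zpow_natCast, hc, one_zpow]
    have h4 : n.Coprime (p ^ c) := Nat.Coprime.pow_right c hn
    exact orderOf_eq_one_iff.mp (Nat.Coprime.eq_one_of_dvd (Nat.Coprime.coprime_dvd_left h1 h4) h3)
  rw [hz, mul_one]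
  exact hr

/-- If `a` does not centralise `R`, then `R ⟨a⟩` has several Sylow `p`-subgroups. -/
lemma one_lt_card_sylow_sup [Finite G] {p : ℕ} [Fact p.Prime] (h : a ∈ normalizer (R : Set G))
    (hR : (Nat.card R).Coprime p) {c : ℕ} (hc : a ^ p ^ c = 1) {r : G} (hr : r ∈ R) (hra : r * a ≠ a * r) :
    1 < Nat.card (Sylow p ↥(R ⊔ zpowers a)) := by
  by_contra hcard
  haveI : Subsingleton (Sylow p ↥(R ⊔ zpowers a)) := (Finite.card_le_one_iff_subsingleton).mp (by omega)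
  have haH : a ∈ R ⊔ zpowers a := (le_sup_right : zpowers a ≤ _) (mem_zpowers a)
  have hrH : r ∈ R ⊔ zpowers a := (le_sup_left : R ≤ _) hr
  obtain ⟨S⟩ : Nonempty (Sylow p ↥(R ⊔ zpowers a)) := inferInstance
  have hnS : (S : Subgroup ↥(R ⊔ zpowers a)).Normal := Sylow.normal_of_subsingleton S
  have haS : (⟨a, haH⟩ : ↥(R ⊔ zpowers a)) ∈ (S : Subgroup ↥(R ⊔ zpowers a)) := by
    have hP : IsPGroup p (zpowers (⟨a, haH⟩ : ↥(R ⊔ zpowers a))) := by
      rw [IsPGroup.iff_card, Nat.card_zpowers]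
      have h1 : orderOf (⟨a, haH⟩ : ↥(R ⊔ zpowers a)) ∣ p ^ c := by
        apply orderOf_dvd_of_pow_eq_one
        exact Subtype.ext hc
      obtain ⟨i, -, hi⟩ := (Nat.dvd_prime_pow (Fact.out : p.Prime)).mp h1
      exact ⟨i, hi⟩
    obtain ⟨Q, hQ⟩ := hP.exists_le_sylow
    rw [Subsingleton.elim S Q]
    exact hQ (mem_zpowers _)
  have h1 : (⟨r, hrH⟩ : ↥(R ⊔ zpowers a)) * ⟨a, haH⟩ * (⟨r, hrH⟩ : ↥(R ⊔ zpowers a))⁻¹ * (⟨a, haH⟩ : ↥(R ⊔ zpowers a))⁻¹ ∈ (S : Subgroup ↥(R ⊔ zpowers a)) :=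
    Subgroup.mul_mem _ (hnS.conj_mem _ haS _) (Subgroup.inv_mem _ haS)
  have h2 : r * a * r⁻¹ * a⁻¹ ∈ R := by
    have := R.mul_mem hr (conj_mem_of_zpow h 1 (R.inv_mem hr))
    simpa [mul_assoc] using this
  obtain ⟨k, hk⟩ := S.isPGroup' ⟨_, h1⟩
  have hk' : (r * a * r⁻¹ * a⁻¹) ^ p ^ k = 1 := congrArg (fun w => ((w : (S : Subgroup ↥(R ⊔ zpowers a))) : ↥(R ⊔ zpowers a)).1) hk
  have h3 : orderOf (⟨_, h2⟩ : R) ∣ Nat.card R := orderOf_dvd_natCard _
  have h4 : orderOf (⟨_, h2⟩ : R) = orderOf (r * a * r⁻¹ * a⁻¹) := Subgroup.orderOf_mk _ _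
  rw [h4] at h3
  have h5 : (Nat.card R).Coprime (p ^ k) := Nat.Coprime.pow_right k hR
  have h6 : r * a * r⁻¹ * a⁻¹ = 1 :=
    orderOf_eq_one_iff.mp (Nat.Coprime.eq_one_of_dvd (Nat.Coprime.coprime_dvd_left h3 h5) (orderOf_dvd_of_pow_eq_one hk'))
  apply hra
  calc r * a = (r * a * r⁻¹ * a⁻¹) * (a * r) := by group
    _ = a * r := by rw [h6, one_mul]

end grp

section main

variable {F : Type*} [Field F] [Fintype F]

local notation "PP" => Matrix.ProjectiveSpecialLinearGroup (Fin 2) F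

/-- A subgroup containing `-1` is a double cover of its image. -/
lemma card_eq_two_mul (h2 : (2 : F) ≠ 0) (L : Subgroup SL(2, F)) (hm : (mone : SL(2, F)) ∈ L) :
    Nat.card L = 2 * Nat.card (L.map (pi (F := F))) := by
  classical
  have hs := MonoidHom.subgroupMap_surjective (pi (F := F)) L
  rw [Cfsg.Agent.Lib.Classical.AutCount.card_of_surjective _ hs]
  congr 1
  rw [Nat.card_eq_two_iff]
  have hk1 : (⟨1, L.one_mem⟩ : L) ∈ ((pi (F := F)).subgroupMap L).ker := one_mem _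
  have hk2 : (⟨mone, hm⟩ : L) ∈ ((pi (F := F)).subgroupMap L).ker := by
    rw [MonoidHom.mem_ker]
    apply Subtype.ext
    exact (pi_eq_one_iff _).mpr isScalar_mone
  refine ⟨⟨_, hk1⟩, ⟨_, hk2⟩, ?_, ?_⟩
  · intro h
    apply mone_ne_one h2
    exact (congrArg (fun w : ((pi (F := F)).subgroupMap L).ker => ((w : L) : SL(2, F))) h).symm
  · ext ⟨⟨x, hx⟩, hk⟩
    simp only [Set.mem_insert_iff, Set.mem_singleton_iff, Set.mem_univ, iff_true]
    rw [MonoidHom.mem_ker] at hk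
    have h1 : (pi x : PP) = 1 := congrArg Subtype.val hk
    rcases isScalar_cases x ((pi_eq_one_iff x).mp h1) with e | e
    · left
      subst e
      rfl
    · right
      subst e
      rfl

lemma mone_mem_of_lift (L : Subgroup SL(2, F)) {x : SL(2, F)} (hx : x ∈ L) (hs : ¬ IsScalar x)
    (h2 : (pi x : PP) ^ 2 = 1) : (mone : SL(2, F)) ∈ L := by
  have ht := tr_zero_of_inv x hs h2
  have hc := sl2_cayley x
  rw [ht, zero_smul, zero_sub] at hc
  have : x * x = mone := by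
    apply Subtype.ext
    rw [mone_coe]
    exact hc
  rw [← this]
  exact L.mul_mem hx hx

set_option maxRecDepth 100000 in
private lemma a4_pair2 : ∃ v₁ v₂ : alternatingGroup (Fin 4), v₁ ^ 2 = 1 ∧ v₂ ^ 2 = 1 ∧ v₁ ≠ 1 ∧ v₂ ≠ 1 ∧ v₁ ≠ v₂ := by
  refine ⟨⟨Equiv.swap 0 1 * Equiv.swap 2 3, by rw [Equiv.Perm.mem_alternatingGroup]; decide⟩,
    ⟨Equiv.swap 0 2 * Equiv.swap 1 3, by rw [Equiv.Perm.mem_alternatingGroup]; decide⟩,
    ?_, ?_, ?_, ?_, ?_⟩ <;> decide

set_option maxRecDepth 100000 in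
private lemma a5_pair : ∃ v₁ v₂ : alternatingGroup (Fin 5), v₁ ^ 2 = 1 ∧ v₂ ^ 2 = 1 ∧ (v₁ * v₂) ^ 3 = 1 ∧ v₁ * v₂ ≠ 1 := by
  refine ⟨⟨Equiv.swap 0 1 * Equiv.swap 2 3, by rw [Equiv.Perm.mem_alternatingGroup]; decide⟩,
    ⟨Equiv.swap 0 1 * Equiv.swap 2 4, by rw [Equiv.Perm.mem_alternatingGroup]; decide⟩,
    ?_, ?_, ?_, ?_⟩ <;> decide

set_option maxRecDepth 100000 in
private lemma s4_pair : ∃ v₁ v₂ : Equiv.Perm (Fin 4), v₁ ^ 2 = 1 ∧ v₂ ^ 2 = 1 ∧ (v₁ * v₂) ^ 3 = 1 ∧ v₁ * v₂ ≠ 1 := by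
  refine ⟨Equiv.swap 0 1, Equiv.swap 1 2, ?_, ?_, ?_, ?_⟩ <;> decide

/-- The analysis of a `p`-element acting non-trivially on a `p'`-subgroup. -/
theorem r3_main (p : ℕ) [Fact p.Prime] [CharP F p] (hp : p ≠ 2) (a : SL(2, F)) {c : ℕ} (hc : a ^ p ^ c = 1)
    (R : Subgroup SL(2, F)) (hR : (Nat.card R).Coprime p) (haR : a ∈ normalizer (R : Set SL(2, F)))
    {r₀ : SL(2, F)} (hr₀ : r₀ ∈ R) (hra : r₀ * a ≠ a * r₀) :
    p = 3 ∧ Nonempty (R ≃* QuaternionGroup 2) ∧ Nonempty (↥(R ⊔ zpowers a) ≃* SL(2, ZMod 3)) := by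
  classical
  have hpp : p.Prime := Fact.out
  have hodd : Odd p := hpp.odd_of_ne_two hp
  have h2 : (2 : F) ≠ 0 := by
    intro h
    have h3 : ((2 : ℕ) : F) = 0 := by exact_mod_cast h
    have h4 := (CharP.cast_eq_zero_iff F p 2).mp h3
    exact hp ((Nat.prime_dvd_prime_iff_eq hpp Nat.prime_two).mp h4)
  set H := R ⊔ zpowers a with hH
  set Rb := R.map (pi (F := F)) with hRb
  set ab : PP := pi a with hab
  set M := H.map (pi (F := F)) with hM
  have hMeq : M = Rb ⊔ zpowers ab := by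
    rw [hM, hH, Subgroup.map_sup, MonoidHom.map_zpowers]
  have habN : ab ∈ normalizer (Rb : Set PP) :=
    Subgroup.le_normalizer_map (pi (F := F)) ⟨a, haR, rfl⟩
  have hRbc : (Nat.card Rb).Coprime p := by
    have hd : Nat.card Rb ∣ Nat.card R :=
      Subgroup.card_dvd_of_surjective ((pi (F := F)).subgroupMap R) (MonoidHom.subgroupMap_surjective _ _)
    exact Nat.Coprime.coprime_dvd_left hd hR
  have hcb : ab ^ p ^ c = 1 := by
    rw [hab, ← map_pow, hc, map_one]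
  have h1 : 1 < Nat.card (Sylow p H) := one_lt_card_sylow_sup haR hR hc hr₀ hra
  have hH' : 1 < Nat.card (Sylow p M) := one_lt_card_sylow_map p hodd H h1
  have hdvd := prime_dvd_card_of_sylow p hH'
  have hmemR : ∀ x ∈ M, ∀ n : ℕ, n.Coprime p → x ^ n = 1 → x ∈ Rb := by
    intro x hx n hn hxn
    rw [hMeq] at hx
    exact mem_of_coprime habN hRbc hcb hx n hn hxn
  have hss : ∀ x : SL(2, F), (pi x : PP) ∈ M → (tr x) ^ 2 ≠ 4 → (pi x : PP) ∈ Rb := by
    intro x hx hτ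
    have hτ' : (tr (lf ((⟨pi x, hx⟩ : M) : PP))) ^ 2 ≠ 4 := by
      intro h
      apply hτ
      rw [← h]
      exact tr_sq_of_pi_eq (pi_lf _).symm
    have hco := coprime_of_ss p M ⟨pi x, hx⟩ hτ'
    have hy1 : (⟨pi x, hx⟩ : M) ≠ 1 := by
      intro h
      apply hτ
      have h3 : (pi x : PP) = 1 := congrArg Subtype.val h
      rcases isScalar_cases x ((pi_eq_one_iff x).mp h3) with e | e
      · subst e
        simp [tr]
        norm_num
      · subst e
        simp [tr]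
        norm_num
    have hmem := (partH M).self ⟨pi x, hx⟩ hy1
    have h3 : orderOf (⟨pi x, hx⟩ : M) ∣ Nat.card ((partH M).C ⟨pi x, hx⟩) := by
      have e : orderOf (⟨⟨pi x, hx⟩, hmem⟩ : (partH M).C ⟨pi x, hx⟩) = orderOf (⟨pi x, hx⟩ : M) :=
        Subgroup.orderOf_mk _ hmem
      rw [← e]
      exact orderOf_dvd_natCard _
    refine hmemR _ hx (orderOf (⟨pi x, hx⟩ : M)) (Nat.Coprime.coprime_dvd_left h3 hco) ?_
    have := pow_orderOf_eq_one (⟨pi x, hx⟩ : M)
    exact congrArg Subtype.val this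
  have hnoP : ∀ y ∈ Rb, y ^ p = 1 → y = 1 := by
    intro y hy hyp
    have h3 : orderOf (⟨y, hy⟩ : Rb) ∣ Nat.card Rb := orderOf_dvd_natCard _
    have h4 : orderOf (⟨y, hy⟩ : Rb) = orderOf y := Subgroup.orderOf_mk _ _
    rw [h4] at h3
    exact orderOf_eq_one_iff.mp (Nat.Coprime.eq_one_of_dvd (Nat.Coprime.coprime_dvd_left h3 hRbc)
      (orderOf_dvd_of_pow_eq_one hyp))
  have hgoodF : ∀ s, 4 ≤ s → Good M s → False := by
    rintro s hs4 ⟨E, f, hs, htr, hu, hl, -, -⟩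
    have hsE : 4 ≤ Fintype.card E := by
      rw [← Nat.card_eq_fintype_card, hs]
      exact hs4
    have key : ∀ e ∈ E, e ≠ 0 → e ≠ -4 → (pi (f.symm (uu e * ll 1)) : PP) ∈ Rb := by
      intro e he he0 he4
      apply hss
      · rw [map_mul, map_mul]
        exact M.mul_mem (hu e he) (hl 1 E.one_mem)
      · have e1 := htr (f.symm (uu e * ll 1))
        rw [MulEquiv.apply_symm_apply, tr_uu_ll, mul_one] at e1
        rw [← e1]
        intro h
        have h5 : e * (e + 4) = 0 := by linear_combination h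
        rcases mul_eq_zero.mp h5 with h6 | h6
        · exact he0 h6
        · exact he4 (by linear_combination h6)
    -- two admissible elements of `E`
    obtain ⟨e₁, he₁, he₁0, he₁4, e₂, he₂, he₂0, he₂4, hne⟩ :
        ∃ e₁ ∈ E, e₁ ≠ 0 ∧ e₁ ≠ -4 ∧ ∃ e₂ ∈ E, e₂ ≠ 0 ∧ e₂ ≠ -4 ∧ e₁ ≠ e₂ := by
      let S₁ : Finset E := ({0, if h : (-4 : F) ∈ E then ⟨-4, h⟩ else 0} : Finset E)
      have hS₁ : S₁.card < (Finset.univ : Finset E).card := by
        rw [Finset.card_univ]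
        exact lt_of_le_of_lt (Finset.card_le_two) (by omega)
      obtain ⟨x₁, -, hx₁⟩ := Finset.exists_mem_notMem_of_card_lt_card hS₁
      have hx₁0 : (x₁ : F) ≠ 0 := by
        intro h
        apply hx₁
        have : x₁ = 0 := Subtype.ext h
        simp [S₁, this]
      have hx₁4 : (x₁ : F) ≠ -4 := by
        intro h
        apply hx₁
        have hm : (-4 : F) ∈ E := h ▸ x₁.2
        have : x₁ = ⟨-4, hm⟩ := Subtype.ext h
        simp [S₁, hm, ← this]
      let S₂ : Finset E := insert x₁ S₁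
      have hS₂ : S₂.card < (Finset.univ : Finset E).card := by
        rw [Finset.card_univ]
        have h5 : S₂.card ≤ S₁.card + 1 := Finset.card_insert_le _ _
        have h6 : S₁.card ≤ 2 := Finset.card_le_two
        omega
      obtain ⟨x₂, -, hx₂⟩ := Finset.exists_mem_notMem_of_card_lt_card hS₂
      have hx₂' : x₂ ≠ x₁ ∧ x₂ ∉ S₁ := by
        simpa [S₂] using hx₂
      have hx₂0 : (x₂ : F) ≠ 0 := by
        intro h
        apply hx₂'.2
        have : x₂ = 0 := Subtype.ext h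
        simp [S₁, this]
      have hx₂4 : (x₂ : F) ≠ -4 := by
        intro h
        apply hx₂'.2
        have hm : (-4 : F) ∈ E := h ▸ x₂.2
        have : x₂ = ⟨-4, hm⟩ := Subtype.ext h
        simp [S₁, hm, ← this]
      exact ⟨x₁, x₁.2, hx₁0, hx₁4, x₂, x₂.2, hx₂0, hx₂4, fun h => hx₂'.1 (Subtype.ext h).symm⟩
    have hk1 := key e₁ he₁ he₁0 he₁4
    have hk2 := key e₂ he₂ he₂0 he₂4
    have hd : (pi (f.symm (uu (e₁ - e₂))) : PP) ∈ Rb := by
      have e3 : f.symm (uu (e₁ - e₂)) = f.symm (uu e₁ * ll 1) * (f.symm (uu e₂ * ll 1))⁻¹ := by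
        rw [← map_inv, ← map_mul]
        congr 1
        rw [_root_.mul_inv_rev, mul_assoc, ← mul_assoc (ll 1), mul_inv_cancel, one_mul]
        have : (uu e₂)⁻¹ = uu (-e₂) := by
          apply inv_eq_of_mul_eq_one_right
          rw [← uu_add, add_neg_cancel, uu_zero]
        rw [this, ← uu_add, sub_eq_add_neg]
      rw [e3, map_mul, map_inv]
      exact Rb.mul_mem hk1 (Rb.inv_mem hk2)
    have hz : (f.symm (uu (e₁ - e₂))) ^ p = 1 := by
      rw [← map_pow, uu_pow, CharP.cast_eq_zero, zero_mul, uu_zero, map_one]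
    have hone := hnoP _ hd (by rw [← map_pow, hz, map_one])
    have hne0 : e₁ - e₂ ≠ 0 := sub_ne_zero.mpr hne
    rcases isScalar_cases _ ((pi_eq_one_iff _).mp hone) with e | e
    · rw [MulEquiv.map_eq_one_iff] at e
      have := congrArg (fun g : SL(2, F) => (g : Matrix (Fin 2) (Fin 2) F) 0 1) e
      simp at this
      exact hne0 this
    · rw [e] at hz
      obtain ⟨k, hk⟩ := hodd
      have h5 : (mone : SL(2, F)) ^ p = mone := by
        rw [hk, pow_succ, pow_mul, sq, mone_mul_self, one_pow, one_mul]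
      rw [h5] at hz
      exact mone_ne_one h2 hz
  by_cases h4 : ∃ S : Sylow p M, 4 ≤ Nat.card (S : Subgroup M)
  · obtain ⟨S, hS⟩ := h4
    exact (hgoodF _ hS (p_case' p M S hH' hS)).elim
  push_neg at h4
  obtain ⟨S₀⟩ : Nonempty (Sylow p M) := inferInstance
  have hp3 : p = 3 := by
    have h5 := S₀.dvd_card_of_dvd_card hdvd
    have h6 := Nat.le_of_dvd Nat.card_pos h5
    have h7 := h4 S₀
    have h8 := hpp.two_le
    omega
  subst hp3
  have hcop2 : Nat.Coprime 2 3 := by decide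
  have hinv : ∀ x ∈ M, x ^ 2 = 1 → x ∈ Rb := fun x hx hxn => hmemR x hx 2 hcop2 hxn
  rcases dickson_main rfl 3 M with ⟨k, hk, hc'⟩ | ⟨Q, hQ⟩ | ⟨⟨i⟩⟩ | ⟨⟨i⟩⟩ | ⟨⟨i⟩⟩ | ⟨S, hS4, -, hG⟩
  · exact (not_cyc_dih 3 hp M hdvd k hk hc').elim
  · exfalso
    haveI := sylow_subsingleton_of_le_normalizer 3 Q M hQ
    have := Finite.card_le_one_iff_subsingleton.mpr this
    omega
  · -- `A₄`
    obtain ⟨v₁, v₂, e1, e2, e3, e4, e5⟩ := a4_pair2
    have m1 := hinv _ (i.symm v₁).2 (congrArg Subtype.val (by rw [← map_pow, e1, map_one] : (i.symm v₁) ^ 2 = 1))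
    have m2 := hinv _ (i.symm v₂).2 (congrArg Subtype.val (by rw [← map_pow, e2, map_one] : (i.symm v₂) ^ 2 = 1))
    have ht₁ : ((i.symm v₁ : M) : PP) ≠ 1 := by
      intro h
      apply e3
      have h0 : i.symm v₁ = 1 := Subtype.ext h
      simpa using congrArg i h0
    have ht₂ : ((i.symm v₂ : M) : PP) ≠ 1 := by
      intro h
      apply e4
      have h0 : i.symm v₂ = 1 := Subtype.ext h
      simpa using congrArg i h0
    have ht₁₂ : ((i.symm v₁ : M) : PP) ≠ ((i.symm v₂ : M) : PP) := by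
      intro h
      apply e5
      have h0 : i.symm v₁ = i.symm v₂ := Subtype.ext h
      exact i.symm.injective h0
    have hv₁ : ((i.symm v₁ : M) : PP) ^ 2 = 1 := congrArg Subtype.val (by rw [← map_pow, e1, map_one] : (i.symm v₁) ^ 2 = 1)
    have hv₂ : ((i.symm v₂ : M) : PP) ^ 2 = 1 := congrArg Subtype.val (by rw [← map_pow, e2, map_one] : (i.symm v₂) ^ 2 = 1)
    obtain ⟨r₁, hr₁, er₁⟩ := m1
    obtain ⟨r₂, hr₂, er₂⟩ := m2
    have hs₁ : ¬ IsScalar r₁ := fun h => ht₁ (by rw [← er₁]; exact (pi_eq_one_iff _).mpr h)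
    have hs₂ : ¬ IsScalar r₂ := fun h => ht₂ (by rw [← er₂]; exact (pi_eq_one_iff _).mpr h)
    have hsq : ∀ x : SL(2, F), ¬ IsScalar x → (pi x : PP) ^ 2 = 1 → x * x = mone := by
      intro x hx hx2
      have ht := tr_zero_of_inv x hx hx2
      have hc := sl2_cayley x
      rw [ht, zero_smul, zero_sub] at hc
      apply Subtype.ext
      rw [mone_coe]
      exact hc
    have hsq₁ := hsq r₁ hs₁ (by rw [er₁]; exact hv₁)
    have hsq₂ := hsq r₂ hs₂ (by rw [er₂]; exact hv₂)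
    have hm : (mone : SL(2, F)) ∈ R := by
      rw [← hsq₁]
      exact R.mul_mem hr₁ hr₁
    have hcR := card_eq_two_mul h2 R hm
    have hcH := card_eq_two_mul h2 H ((le_sup_left : R ≤ H) hm)
    have hcM : Nat.card M = 12 := by
      rw [Nat.card_congr i.toEquiv]
      exact card_A4
    have hRbM : Rb ≤ M := Subgroup.map_mono le_sup_left
    have hdRM : Nat.card Rb ∣ Nat.card M := Subgroup.card_dvd_of_le hRbM
    rw [hcM] at hdRM
    have hd4 : Nat.card Rb ∣ 4 := by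
      have e6 : (12 : ℕ) = 3 * 4 := by norm_num
      rw [e6] at hdRM
      exact (Nat.Coprime.dvd_of_dvd_mul_left hRbc hdRM)
    have hge : 3 ≤ Nat.card Rb := by
      let g : Fin 3 → Rb := ![1, ⟨_, ⟨r₁, hr₁, er₁⟩⟩, ⟨_, ⟨r₂, hr₂, er₂⟩⟩]
      have hg : Function.Injective g := by
        intro x y hxy
        have hxy' := congrArg Subtype.val hxy
        fin_cases x <;> fin_cases y <;> simp [g] at hxy' ⊢
        · exact ht₁ hxy'.symm
        · exact ht₂ hxy'.symm
        · exact e3 hxy'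
        · exact e5 hxy'
        · exact e4 hxy'
        · exact e5 hxy'.symm
      have := Nat.card_le_card_of_injective g hg
      simpa using this
    have hRb4 : Nat.card Rb = 4 := by
      have h5 := Nat.le_of_dvd (by norm_num) hd4
      interval_cases h6 : Nat.card Rb
      · omega
      · rfl
    have hR8 : Nat.card R = 2 ^ 3 := by
      rw [hcR]
      change 2 * Nat.card Rb = _
      rw [hRb4]
      norm_num
    have hP : IsPGroup 2 R := IsPGroup.of_card hR8
    have hna : ¬ IsMulCommutative R := by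
      intro hcomm
      have hc2 := hcomm.is_comm.comm (⟨r₁, hr₁⟩ : R) ⟨r₂, hr₂⟩
      have hc3 : r₁ * r₂ = r₂ * r₁ := congrArg Subtype.val hc2
      have hc4 : (r₁ * r₂) ^ 2 = 1 := by
        have : (r₁ * r₂) ^ 2 = (r₁ * r₁) * (r₂ * r₂) := by
          rw [sq, mul_assoc, ← mul_assoc r₂, ← hc3, mul_assoc, mul_assoc]
        rw [this, hsq₁, hsq₂, mone_mul_self]
      have hc5 : (pi (r₁ * r₂) : PP) = 1 := by
        by_cases hx : r₁ * r₂ = 1
        · rw [hx, map_one]
        · have h6 := Cfsg.Agent.Lib.Classical.Quat.involution_eq_neg_one h2 _ hc4 hx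
          have h7 : r₁ * r₂ = mone := Subtype.ext (by rw [h6, mone_coe])
          rw [h7]
          exact (pi_eq_one_iff _).mpr isScalar_mone
      rw [map_mul, er₁, er₂] at hc5
      apply ht₁₂
      have h8 : ((i.symm v₂ : M) : PP) * ((i.symm v₂ : M) : PP) = 1 := by rw [← sq]; exact hv₂
      calc ((i.symm v₁ : M) : PP) = ((i.symm v₁ : M) : PP) * (((i.symm v₂ : M) : PP) * ((i.symm v₂ : M) : PP)) := by
            rw [h8, mul_one]
        _ = _ := by rw [← mul_assoc, hc5, one_mul]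
    have hU : ∃! x : R, orderOf x = 2 := by
      have hmo : orderOf (⟨mone, hm⟩ : R) = 2 := by
        apply orderOf_eq_prime
        · apply Subtype.ext
          change (mone : SL(2, F)) ^ 2 = 1
          rw [sq, mone_mul_self]
        · intro h
          exact mone_ne_one h2 (congrArg Subtype.val h)
      refine ⟨⟨mone, hm⟩, hmo, ?_⟩
      intro y hy
      apply Subtype.ext
      apply Subtype.ext
      rw [mone_coe]
      apply Cfsg.Agent.Lib.Classical.Quat.involution_eq_neg_one h2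
      · have : y ^ 2 = 1 := orderOf_dvd_iff_pow_eq_one.mp (by rw [hy])
        exact congrArg Subtype.val this
      · intro h1
        have : y = 1 := Subtype.ext h1
        rw [this, orderOf_one] at hy
        omega
    obtain ⟨k, hk, ⟨e⟩⟩ := quat_of_unique_involution hP hna hU
    have hk1 : k = 1 := by
      have h9 : Nat.card R = 4 * 2 ^ k := by
        haveI : NeZero (2 ^ k) := ⟨by positivity⟩
        rw [Nat.card_congr e.toEquiv, Cfsg.Agent.Lib.Classical.Quat.card_quaternion]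
      rw [hR8] at h9
      have h10 : 2 ^ k = 2 ^ 1 := by omega
      exact Nat.pow_right_injective (le_refl 2) h10
    subst hk1
    refine ⟨rfl, ⟨e⟩, ?_⟩
    obtain ⟨K, hKH, ⟨j⟩⟩ := sl2p_copy 3 hp H h1
    have hK24 : Nat.card K = 24 := by
      rw [Nat.card_congr j.toEquiv, Cfsg.Agent.Lib.KS2.SL2.card_SL2, ZMod.card]
      norm_num
    have hH24 : Nat.card H = 24 := by
      rw [hcH]
      change 2 * Nat.card M = _
      rw [hcM]
    have hKeq : K = H := Subgroup.eq_of_le_of_card_ge hKH (by omega)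
    exact ⟨(MulEquiv.subgroupCongr hKeq).symm.trans j⟩
  · exfalso
    obtain ⟨v₁, v₂, e1, e2, e3, e4⟩ := s4_pair
    have m1 := hinv _ (i.symm v₁).2 (congrArg Subtype.val (by rw [← map_pow, e1, map_one] : (i.symm v₁) ^ 2 = 1))
    have m2 := hinv _ (i.symm v₂).2 (congrArg Subtype.val (by rw [← map_pow, e2, map_one] : (i.symm v₂) ^ 2 = 1))
    have m3 := hnoP _ (Rb.mul_mem m1 m2) (congrArg Subtype.val (by rw [← map_mul, ← map_pow, e3, map_one] : (i.symm v₁ * i.symm v₂) ^ 3 = 1))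
    apply e4
    have : i.symm (v₁ * v₂) = 1 := by
      rw [map_mul]
      exact Subtype.ext m3
    simpa using congrArg i this
  · exfalso
    obtain ⟨v₁, v₂, e1, e2, e3, e4⟩ := a5_pair
    have m1 := hinv _ (i.symm v₁).2 (congrArg Subtype.val (by rw [← map_pow, e1, map_one] : (i.symm v₁) ^ 2 = 1))
    have m2 := hinv _ (i.symm v₂).2 (congrArg Subtype.val (by rw [← map_pow, e2, map_one] : (i.symm v₂) ^ 2 = 1))
    have m3 := hnoP _ (Rb.mul_mem m1 m2) (congrArg Subtype.val (by rw [← map_mul, ← map_pow, e3, map_one] : (i.symm v₁ * i.symm v₂) ^ 3 = 1))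
    apply e4
    have : i.symm (v₁ * v₂) = 1 := by
      rw [map_mul]
      exact Subtype.ext m3
    simpa using congrArg i this
  · exact (hgoodF _ hS4 hG).elim

end main

end Cfsg.Agent.Lib.Classical.Dick
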